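import Cfsg.Agent.Chev.Cover.Groups
import Cfsg.Agent.Chev.Simple
import Cfsg.Prelude.Def_Classical

/-! From a representation of Steinberg's presented group to an isomorphism with `PΩ`. -/

set_option autoImplicit false

namespace CfsgLib.Chev.Natural

open Cfsg.Lie Matrix
open scoped commutatorElement

universe u

/-- In a perfect group the centre of the quotient by the centre is trivial. -/
theorem center_quot_eq_bot {Ω : Type u} [Group Ω] (h : commutator Ω = ⊤) :
    Subgroup.center (Ω ⧸ Subgroup.center Ω) = ⊥ := by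
  refine (Subgroup.eq_bot_iff_forall _).2 fun z hz => ?_
  obtain ⟨x, rfl⟩ := QuotientGroup.mk_surjective z
  refine (QuotientGroup.eq_one_iff x).2 ?_
  have hx : ∀ g : Ω, ⁅x, g⁆ ∈ Subgroup.center Ω := by
    intro g
    rw [← QuotientGroup.eq_one_iff]
    show QuotientGroup.mk' _ ⁅x, g⁆ = 1
    rw [map_commutatorElement, commutatorElement_eq_one_iff_mul_comm]
    exact (Subgroup.mem_center_iff.1 hz (QuotientGroup.mk g)).symm
  let φ : Ω →* Subgroup.center Ω := MonoidHom.mk' (fun g => ⟨⁅x, g⁆, hx g⟩) fun a b => by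
    apply Subtype.ext
    show ⁅x, a * b⁆ = ⁅x, a⁆ * ⁅x, b⁆
    have hb := Subgroup.mem_center_iff.1 (hx b) a
    calc ⁅x, a * b⁆ = ⁅x, a⁆ * (a * ⁅x, b⁆ * a⁻¹) := by
          simp only [commutatorElement_def]; group
      _ = ⁅x, a⁆ * ⁅x, b⁆ := by rw [hb, mul_inv_cancel_right]
  have hker : φ.ker = ⊤ := by
    rw [eq_top_iff, ← h, commutator_def, Subgroup.commutator_le]
    intro a _ b _
    show φ ⁅a, b⁆ = (1 : Subgroup.center Ω)
    rw [map_commutatorElement, commutatorElement_eq_one_iff_mul_comm]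
    exact Subtype.ext (Subgroup.mem_center_iff.1 (φ b).2 _)
  rw [Subgroup.mem_center_iff]
  intro g
  have hgk : g ∈ φ.ker := by rw [hker]; exact Subgroup.mem_top g
  have h1 : φ g = (1 : Subgroup.center Ω) := hgk
  have this : ⁅x, g⁆ = 1 := congrArg Subtype.val h1
  exact (commutatorElement_eq_one_iff_mul_comm.1 this).symm

/-- A representation whose image is the commutator subgroup of an isometry group gives `PΩ`. -/
theorem equiv_POmega {D : ChevalleyDatum} (S : Sys.{u} D) (hg : GenOK D) {F : Type u} [Field F]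
    (hperf : commutator (D.SteinbergCover F) = ⊤) (hsimp : IsSimpleGroup (D.group F))
    {ι : Type} [Fintype ι] [DecidableEq ι] {Q : (ι → F) → F} (ρ : D.SteinbergCover F →* GL ι F)
    {E : Subgroup (GL ι F)} (hE : ρ.range = E) (hEiso : E ≤ Cfsg.isometryGroup F Q)
    (hcomm : ∀ g ∈ Cfsg.isometryGroup F Q, ∀ h ∈ Cfsg.isometryGroup F Q, ⁅g, h⁆ ∈ E)
    (hne : ∃ x, ρ x ≠ 1) : Nonempty (↥(D.group F) ≃* Cfsg.POmega F Q) := by
  let Φ : D.SteinbergCover F →* Cfsg.isometryGroup F Q :=
    ρ.codRestrict _ fun x => hEiso (hE ▸ ⟨x, rfl⟩)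
  have hrange : Φ.range = Cfsg.Omega F Q := by
    refine le_antisymm ?_ ?_
    · rw [MonoidHom.range_eq_map, ← hperf, commutator_def, Subgroup.map_commutator]
      exact Subgroup.commutator_mono le_top le_top
    · rw [Cfsg.Omega, commutator_def, Subgroup.commutator_le]
      intro a _ b _
      have hm : ((⁅a, b⁆ : Cfsg.isometryGroup F Q) : GL ι F) ∈ ρ.range := by
        rw [hE]; exact hcomm _ a.2 _ b.2
      obtain ⟨x, hx⟩ := hm
      exact ⟨x, Subtype.ext hx⟩
  let Φ' : D.SteinbergCover F →* Cfsg.Omega F Q := Φ.codRestrict _ fun x => hrange ▸ ⟨x, rfl⟩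
  have hsurj : Function.Surjective Φ' := by
    rintro ⟨a, ha⟩
    rw [← hrange] at ha
    obtain ⟨x, hx⟩ := ha
    exact ⟨x, Subtype.ext hx⟩
  have hΩ : commutator (Cfsg.Omega F Q) = ⊤ := by
    rw [← top_le_iff]
    calc (⊤ : Subgroup (Cfsg.Omega F Q)) = (⊤ : Subgroup (D.SteinbergCover F)).map Φ' :=
          (Subgroup.map_top_of_surjective _ hsurj).symm
      _ ≤ _ := by
        rw [← hperf, commutator_def, Subgroup.map_commutator]
        exact Subgroup.commutator_mono le_top le_top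
  let ψ : D.SteinbergCover F →* Cfsg.POmega F Q :=
    (QuotientGroup.mk' (Subgroup.center (Cfsg.Omega F Q))).comp Φ'
  have hψ : Function.Surjective ψ := (QuotientGroup.mk'_surjective _).comp hsurj
  have hker : (S.coverLift F).θ.ker ≤ ψ.ker := by
    intro z hz
    have hzc := (S.coverLift F).θ_ker_le_center hg hz
    have : ψ z ∈ Subgroup.center (Cfsg.POmega F Q) := by
      rw [Subgroup.mem_center_iff]
      intro g
      obtain ⟨a, rfl⟩ := hψ g
      rw [← map_mul, ← map_mul, Subgroup.mem_center_iff.1 hzc a]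
    rwa [center_quot_eq_bot hΩ, Subgroup.mem_bot, ← MonoidHom.mem_ker] at this
  let φ : D.group F →* Cfsg.POmega F Q :=
    (S.coverLift F).θ.liftOfSurjective (S.coverLift F).θ_surjective ⟨ψ, hker⟩
  have hφ : ∀ x, φ ((S.coverLift F).θ x) = ψ x := fun x =>
    MonoidHom.liftOfRightInverse_comp_apply _ _ _ ⟨ψ, hker⟩ x
  have hφs : Function.Surjective φ := by
    intro g
    obtain ⟨x, rfl⟩ := hψ g
    exact ⟨_, hφ x⟩
  refine ⟨MulEquiv.ofBijective φ ⟨(MonoidHom.ker_eq_bot_iff _).1 ?_, hφs⟩⟩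
  rcases hsimp.eq_bot_or_eq_top_of_normal φ.ker inferInstance with h | h
  · exact h
  exfalso
  obtain ⟨x, hx⟩ := hne
  apply hx
  -- otherwise `Ω` would be central, hence abelian and perfect, hence trivial
  have hc : ∀ a : Cfsg.Omega F Q, a ∈ Subgroup.center (Cfsg.Omega F Q) := by
    intro a
    obtain ⟨y, rfl⟩ := hsurj a
    have h1 : φ ((S.coverLift F).θ y) = 1 :=
      MonoidHom.mem_ker.1 (h ▸ Subgroup.mem_top _)
    rw [hφ] at h1
    exact (QuotientGroup.eq_one_iff _).1 h1
  have htriv : commutator (Cfsg.Omega F Q) = ⊥ := by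
    rw [commutator_def, Subgroup.commutator_eq_bot_iff_le_centralizer]
    intro a _ b _
    exact Subgroup.mem_center_iff.1 (hc a) b
  have : Φ' x ∈ (⊥ : Subgroup (Cfsg.Omega F Q)) := by
    rw [← htriv, hΩ]; exact Subgroup.mem_top _
  exact congrArg (fun a : Cfsg.Omega F Q => ((a : Cfsg.isometryGroup F Q) : GL ι F))
    (Subgroup.mem_bot.1 this)

end CfsgLib.Chev.Natural
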