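import Cfsg.Agent.Chev.Natural.OrthD
import Cfsg.Agent.Chev.Natural.EquivPO
import Cfsg.Agent.Chev.Cover.Perfect
import Cfsg.Agent.Chev.Cover.Cert
import Cfsg.Agent.Chev.SimpleCert
import Cfsg.Agent.Chev.Inst

/-! The natural representation of the datum of type `D₄`. -/

set_option autoImplicit false
set_option maxRecDepth 100000

namespace CfsgLib.Chev.Natural

open Cfsg.Lie Matrix

universe u

/-- The code of a coordinate. -/
def codeD4 : Fin 4 ⊕ Fin 4 → ℕ := Sum.elim (fun i => (i : ℕ)) fun i => 4 + (i : ℕ)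

/-- The elementary isometry and sign attached to each root. -/
def tblD4 : List (NK (Fin 4 ⊕ Fin 4) × ℤ) :=
  [(kN 0 1, -1), (kN 0 2, -1), (kA 3 0, 1), (kN 0 3, -1), (kA 2 0, -1), (kA 1 0, 1), (kN 1 2, 1),
   (kA 3 1, -1), (kN 1 3, 1), (kA 2 1, 1), (kA 3 2, 1), (kN 2 3, -1), (kP 2 3, 1), (kA 2 3, 1),
   (kA 1 2, 1), (kP 1 3, -1), (kA 1 3, -1), (kP 1 2, -1), (kA 0 1, 1), (kA 0 2, -1), (kP 0 3, 1),
   (kA 0 3, 1), (kP 0 2, 1), (kP 0 1, 1)]

theorem repOK_D4 : repOK chevD4 codeD4 tblD4 8 = true := by decide +kernel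

theorem tblD4_kinds : ∀ p ∈ tblD4, ∃ i j : Fin 4, i ≠ j ∧
    (p.1 = kA i j ∨ p.1 = kP i j ∨ p.1 = kN i j) := by decide +kernel

set_option synthInstance.maxSize 4000 in
set_option synthInstance.maxHeartbeats 400000 in
theorem tblD4_covers : ∀ i j : Fin 4, i ≠ j →
    ((kA i j, 1) ∈ tblD4 ∨ (kA i j, -1) ∈ tblD4) ∧
    ((kP i j, 1) ∈ tblD4 ∨ (kP i j, -1) ∈ tblD4 ∨ (kP j i, 1) ∈ tblD4 ∨ (kP j i, -1) ∈ tblD4) ∧
    ((kN i j, 1) ∈ tblD4 ∨ (kN i j, -1) ∈ tblD4 ∨ (kN j i, 1) ∈ tblD4 ∨ (kN j i, -1) ∈ tblD4) := by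
  decide +kernel

/-- `D₄(F) ≅ PΩ₈⁺(F)`. -/
theorem d4_equiv (F : Type u) [Field F] :
    Nonempty (↥(chevD4.group F) ≃* Cfsg.POmega F (Cfsg.quadFormPlus 4 F)) := by
  obtain ⟨ρ, hρ⟩ := exists_repHom (F := F) (code := codeD4) (d := 8) (T := tblD4) (D := chevD4)
    (by decide) (by decide) repOK_D4
  have hlen : tblD4.length = chevD4.nroots := by decide +kernel
  have hmem : ∀ (k : NK (Fin 4 ⊕ Fin 4)) (hk : k.Ok) (s : ℤ), (k, s) ∈ tblD4 → s * s = 1 →
      ∀ t : F, nkU k hk t ∈ ρ.range := by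
    intro k hk s hs hss t
    obtain ⟨r, hr⟩ := List.getElem?_of_mem hs
    refine ⟨chevD4.scGen F r ((s : F) * t), Units.ext ?_⟩
    rw [hρ, repMat, hr]
    show nkMat k _ = nkMat k t
    rw [← mul_assoc, ← Int.cast_mul, hss, Int.cast_one, one_mul]
  have hswap : ∀ (a b c d : Fin 4 ⊕ Fin 4) (h1 : (NK.two a b c d).Ok) (h2 : (NK.two c d a b).Ok),
      (∀ t : F, nkU (.two a b c d) h1 t ∈ ρ.range) → ∀ t : F, nkU (.two c d a b) h2 t ∈ ρ.range := by
    intro a b c d h1 h2 h t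
    convert h (-t) using 1
    exact Units.ext (nkMat_two_swap c d a b t).symm
  have hE : ρ.range = ED 4 F := by
    refine le_antisymm ?_ ?_
    · rw [MonoidHom.range_eq_map, ← PresentedGroup.closure_range_of (chevD4.steinbergRelsAB F),
        MonoidHom.map_closure, Subgroup.closure_le]
      rintro _ ⟨_, ⟨⟨r, t⟩, rfl⟩, rfl⟩
      have h1 : PresentedGroup.of (rels := chevD4.steinbergRelsAB F) (r, t) = chevD4.scGen F r t := by
        simp [ChevalleyDatum.scGen, ChevalleyDatum.stX, PresentedGroup.of]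
      rw [h1, SetLike.mem_coe]
      have hr : (r : ℕ) < tblD4.length := lt_of_lt_of_eq r.2 hlen.symm
      obtain ⟨i, j, hij, hk⟩ := tblD4_kinds _ (List.getElem_mem hr)
      rcases hk with hk | hk | hk
      · rw [show ρ (chevD4.scGen F r t) = nkU (kA i j) (okA hij) (((tblD4[(r : ℕ)]).2 : F) * t) from
          Units.ext (by rw [hρ, repMat, List.getElem?_eq_getElem hr]; show nkMat (tblD4[(r : ℕ)]).1 _ = _; rw [hk]; rfl)]
        exact memA hij _
      · rw [show ρ (chevD4.scGen F r t) = nkU (kP i j) (okP hij) (((tblD4[(r : ℕ)]).2 : F) * t) from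
          Units.ext (by rw [hρ, repMat, List.getElem?_eq_getElem hr]; show nkMat (tblD4[(r : ℕ)]).1 _ = _; rw [hk]; rfl)]
        exact memP hij _
      · rw [show ρ (chevD4.scGen F r t) = nkU (kN i j) (okN hij) (((tblD4[(r : ℕ)]).2 : F) * t) from
          Units.ext (by rw [hρ, repMat, List.getElem?_eq_getElem hr]; show nkMat (tblD4[(r : ℕ)]).1 _ = _; rw [hk]; rfl)]
        exact memN hij _
    · rw [ED, Subgroup.closure_le]
      rintro g ⟨i, j, h, t, hg⟩
      obtain ⟨cA, cP, cN⟩ := tblD4_covers i j h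
      rcases hg with rfl | rfl | rfl
      · rcases cA with c | c <;> exact hmem _ _ _ c (by norm_num) t
      · rcases cP with c | c | c | c
        · exact hmem _ _ _ c (by norm_num) t
        · exact hmem _ _ _ c (by norm_num) t
        · exact hswap _ _ _ _ (okP h.symm) (okP h) (hmem _ _ _ c (by norm_num)) t
        · exact hswap _ _ _ _ (okP h.symm) (okP h) (hmem _ _ _ c (by norm_num)) t
      · rcases cN with c | c | c | c
        · exact hmem _ _ _ c (by norm_num) t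
        · exact hmem _ _ _ c (by norm_num) t
        · exact hswap _ _ _ _ (okN h.symm) (okN h) (hmem _ _ _ c (by norm_num)) t
        · exact hswap _ _ _ _ (okN h.symm) (okN h) (hmem _ _ _ c (by norm_num)) t
  refine equiv_POmega sysD4 genOK_D4 ((sysD4.coverLift F).perfect_all' genOK_D4 perfAll_D4)
    (sysD4.simple_noncomm (sysD4.perfect_all perfAll_D4) connOK_D4 (by decide)).1 ρ hE ED_le_iso
    (fun g hg h hh => commutator_mem_ED (by norm_num) hg hh) ?_
  have h01 : (0 : Fin 4) ≠ 1 := by decide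
  obtain ⟨x, hx⟩ : nkU (kA (0 : Fin 4) 1) (okA h01) (1 : F) ∈ ρ.range := hE ▸ memA h01 1
  refine ⟨x, fun e => ?_⟩
  rw [e] at hx
  have := congrArg (fun u : GL (Fin 4 ⊕ Fin 4) F =>
    (u : Matrix (Fin 4 ⊕ Fin 4) (Fin 4 ⊕ Fin 4) F) (Sum.inl 0) (Sum.inl 1)) hx
  simp [kA, nkMat, Matrix.one_apply] at this

end CfsgLib.Chev.Natural
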