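import Cfsg.Agent.Chev.Natural.OrthB
import Cfsg.Agent.Chev.Natural.EquivPO
import Cfsg.Agent.Chev.Cover.Perfect
import Cfsg.Agent.Chev.Cover.Cert
import Cfsg.Agent.Chev.SimpleCert
import Cfsg.Agent.Chev.Inst

/-! The natural representation of the datum of type `B₂`. -/

set_option autoImplicit false
set_option maxRecDepth 100000

namespace CfsgLib.Chev.Natural

open Cfsg.Lie Matrix

universe u

/-- The code of a coordinate. -/
def codeB2 : I5 → ℕ := Sum.elim (fun _ => 4) (Sum.elim (fun i => (i : ℕ)) fun i => 2 + (i : ℕ))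

/-- The elementary isometry and sign attached to each root. -/
def tblB2 : List (NK I5 × ℤ) :=
  [(.two (yc 0) (xc 1) (yc 1) (xc 0), -1), (.three (yc 0) zc (xc 0), -1),
   (.three (yc 1) zc (xc 1), -1), (.two (xc 1) (xc 0) (yc 0) (yc 1), 1),
   (.two (xc 0) (xc 1) (yc 1) (yc 0), 1), (.three (xc 1) zc (yc 1), 1),
   (.three (xc 0) zc (yc 0), 1), (.two (xc 0) (yc 1) (xc 1) (yc 0), 1)]

theorem repOK_B2 : repOK chevB2 codeB2 tblB2 5 = true := by decide +kernel

theorem tblB2_kinds : ∀ p ∈ tblB2, p.1 ∈ kindsB := by decide +kernel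

theorem tblB2_covers : ∀ k ∈ kindsB, (k, 1) ∈ tblB2 ∨ (k, -1) ∈ tblB2 := by decide +kernel

/-- `B₂(F) ≅ PΩ₅(F)`. -/
theorem b2_equiv (F : Type u) [Field F] (hF : ∃ a : F, a ≠ 0 ∧ a ≠ 1) :
    Nonempty (↥(chevB2.group F) ≃* Cfsg.POmega F (Cfsg.quadFormOdd 2 F)) := by
  obtain ⟨ρ, hρ⟩ := exists_repHom (F := F) (code := codeB2) (d := 5) (T := tblB2) (D := chevB2)
    (by decide) (by decide) repOK_B2
  have hlen : tblB2.length = chevB2.nroots := by decide +kernel
  have hE : ρ.range = EB F := by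
    refine le_antisymm ?_ ?_
    · rw [MonoidHom.range_eq_map, ← PresentedGroup.closure_range_of (chevB2.steinbergRelsAB F),
        MonoidHom.map_closure, Subgroup.closure_le]
      rintro _ ⟨_, ⟨⟨r, t⟩, rfl⟩, rfl⟩
      have h1 : PresentedGroup.of (rels := chevB2.steinbergRelsAB F) (r, t) = chevB2.scGen F r t := by
        simp [ChevalleyDatum.scGen, ChevalleyDatum.stX, PresentedGroup.of]
      rw [h1, SetLike.mem_coe]
      have hr : (r : ℕ) < tblB2.length := lt_of_lt_of_eq r.2 hlen.symm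
      have hk := tblB2_kinds _ (List.getElem_mem hr)
      rw [show ρ (chevB2.scGen F r t) = nkU _ (okB hk) (((tblB2[(r : ℕ)]).2 : F) * t) from
        Units.ext (by rw [hρ, repMat, List.getElem?_eq_getElem hr]; rfl)]
      exact memB hk _
    · rw [EB, Subgroup.closure_le]
      rintro g ⟨k, hk, hok, t, rfl⟩
      obtain ⟨s, hs, hss⟩ : ∃ s : ℤ, (k, s) ∈ tblB2 ∧ s * s = 1 := by
        rcases tblB2_covers k hk with c | c
        · exact ⟨1, c, by norm_num⟩
        · exact ⟨-1, c, by norm_num⟩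
      obtain ⟨r, hr⟩ := List.getElem?_of_mem hs
      refine ⟨chevB2.scGen F r ((s : F) * t), Units.ext ?_⟩
      rw [hρ, repMat, hr]
      show nkMat k _ = nkMat k t
      rw [← mul_assoc, ← Int.cast_mul, hss, Int.cast_one, one_mul]
  refine equiv_POmega sysB2 genOK_B2 ((sysB2.coverLift F).perfect_big' genOK_B2 perfBig_B2 hF)
    (sysB2.simple_noncomm (sysB2.perfect_big perfBig_B2 hF) connOK_B2 (by decide)).1 ρ hE EB_le_iso
    (fun g hg h hh => commutator_mem_EB hg hh) ?_
  have hk : NK.two (xc 0) (xc 1) (yc 1) (yc 0) ∈ kindsB := by simp [kindsB]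
  obtain ⟨x, hx⟩ : nkU _ (okB hk) (1 : F) ∈ ρ.range := hE ▸ memB hk 1
  refine ⟨x, fun e => ?_⟩
  rw [e] at hx
  have := congrArg (fun u : GL I5 F => (u : Matrix I5 I5 F) (xc 0) (xc 1)) hx
  simp [nkMat, Matrix.one_apply] at this

end CfsgLib.Chev.Natural
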