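import Cfsg.Agent.Chev.Natural.Elem
import Cfsg.Prelude.Def_Classical

/-!
# The commutator subgroup of the five-dimensional orthogonal group is elementary
-/

set_option autoImplicit false

namespace CfsgLib.Chev.Natural

open Matrix
open scoped commutatorElement

universe u

/-- The coordinates in dimension five. -/
abbrev I5 : Type := Unit ⊕ (Fin 2 ⊕ Fin 2)

/-- The anisotropic coordinate. -/
abbrev zc : I5 := .inl ()
/-- The `x`-coordinates. -/
abbrev xc (i : Fin 2) : I5 := .inr (.inl i)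
/-- The `y`-coordinates. -/
abbrev yc (i : Fin 2) : I5 := .inr (.inr i)

/-- The kinds of root elements. -/
def kindsB : List (NK I5) :=
  [.two (xc 0) (xc 1) (yc 1) (yc 0), .two (xc 1) (xc 0) (yc 0) (yc 1),
   .two (xc 0) (yc 1) (xc 1) (yc 0), .two (yc 0) (xc 1) (yc 1) (xc 0),
   .three (xc 0) zc (yc 0), .three (xc 1) zc (yc 1), .three (yc 0) zc (xc 0), .three (yc 1) zc (xc 1)]

variable {F : Type u} [Field F]

local notation "𝕄" => Matrix I5 I5 F

/-- The elementary subgroup. -/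
def EB (F : Type u) [Field F] : Subgroup (GL I5 F) :=
  Subgroup.closure {g | ∃ k ∈ kindsB, ∃ (hk : NK.Ok k) (t : F), g = nkU k hk t}

theorem okB {k : NK I5} (h : k ∈ kindsB) : k.Ok := by
  simp only [kindsB, List.mem_cons, List.not_mem_nil, or_false] at h
  rcases h with rfl | rfl | rfl | rfl | rfl | rfl | rfl | rfl <;> simp [NK.Ok]

theorem memB {k : NK I5} (h : k ∈ kindsB) (t : F) : nkU k (okB h) t ∈ EB F :=
  Subgroup.subset_closure ⟨k, h, okB h, t, rfl⟩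

theorem qB (v : I5 → F) : Cfsg.quadFormOdd 2 F v =
    v zc ^ 2 + (v (xc 0) * v (yc 0) + v (xc 1) * v (yc 1)) := by
  simp [Cfsg.quadFormOdd, Fin.sum_univ_two]

theorem mem_isoB_iff {g : GL I5 F} :
    g ∈ Cfsg.isometryGroup F (Cfsg.quadFormOdd 2 F) ↔ ∀ v,
      Cfsg.quadFormOdd 2 F ((g : 𝕄) *ᵥ v) = Cfsg.quadFormOdd 2 F v :=
  ⟨fun h v => h v v, fun h u _ => h u⟩

theorem EB_le_iso : EB F ≤ Cfsg.isometryGroup F (Cfsg.quadFormOdd 2 F) := by
  rw [EB, Subgroup.closure_le]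
  rintro g ⟨k, hk, hok, t, rfl⟩
  refine mem_isoB_iff.2 fun v => ?_
  simp only [kindsB, List.mem_cons, List.not_mem_nil, or_false] at hk
  rcases hk with rfl | rfl | rfl | rfl | rfl | rfl | rfl | rfl <;>
    (first | simp only [qB, coe_nkU, two_apply hok] | simp only [qB, coe_nkU, three_apply hok]) <;>
    simp <;> ring

/-- The polar form. -/
def bB (u v : I5 → F) : F :=
  Cfsg.quadFormOdd 2 F (u + v) - Cfsg.quadFormOdd 2 F u - Cfsg.quadFormOdd 2 F v

theorem bB_iso {g : GL I5 F} (hg : g ∈ Cfsg.isometryGroup F (Cfsg.quadFormOdd 2 F)) (u v : I5 → F) :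
    bB ((g : 𝕄) *ᵥ u) ((g : 𝕄) *ᵥ v) = bB u v := by
  rw [bB, bB, ← Matrix.mulVec_add, mem_isoB_iff.1 hg, mem_isoB_iff.1 hg, mem_isoB_iff.1 hg]

theorem bB_x (u : I5 → F) (i : Fin 2) : bB u (Pi.single (xc i) 1) = u (yc i) := by
  fin_cases i <;> simp [bB, qB] <;> ring

theorem bB_y (u : I5 → F) (i : Fin 2) : bB u (Pi.single (yc i) 1) = u (xc i) := by
  fin_cases i <;> simp [bB, qB] <;> ring

theorem bB_z (u : I5 → F) : bB u (Pi.single zc 1) = 2 * u zc := by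
  simp [bB, qB]; ring

theorem inv_fix {g : GL I5 F} {v : I5 → F} (h : (g : 𝕄) *ᵥ v = v) :
    ((g⁻¹ : GL I5 F) : 𝕄) *ᵥ v = v := by
  conv_lhs => rw [← h]
  rw [Matrix.mulVec_mulVec, ← Units.val_mul, inv_mul_cancel, Units.val_one, Matrix.one_mulVec]

/-- The first pair can be moved back by an elementary element. -/
theorem exists_fixB {g : GL I5 F} (hg : g ∈ Cfsg.isometryGroup F (Cfsg.quadFormOdd 2 F)) :
    ∃ h ∈ EB F, ((h * g : GL I5 F) : 𝕄) *ᵥ Pi.single (xc 0) 1 = Pi.single (xc 0) 1 ∧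
      ((h * g : GL I5 F) : 𝕄) *ᵥ Pi.single (yc 0) 1 = Pi.single (yc 0) 1 := by
  have hA01 : NK.two (xc 0) (xc 1) (yc 1) (yc 0) ∈ kindsB := by simp [kindsB]
  have hA10 : NK.two (xc 1) (xc 0) (yc 0) (yc 1) ∈ kindsB := by simp [kindsB]
  have hP : NK.two (xc 0) (yc 1) (xc 1) (yc 0) ∈ kindsB := by simp [kindsB]
  have hN : NK.two (yc 0) (xc 1) (yc 1) (xc 0) ∈ kindsB := by simp [kindsB]
  have hSp : NK.three (xc 0) zc (yc 0) ∈ kindsB := by simp [kindsB]
  have hSn : NK.three (yc 0) zc (xc 0) ∈ kindsB := by simp [kindsB]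
  set v := (g : 𝕄) *ᵥ Pi.single (xc 0) 1 with hv
  have hqv : Cfsg.quadFormOdd 2 F v = 0 := by rw [hv, mem_isoB_iff.1 hg]; simp [qB]
  obtain ⟨g₁, hg₁, hx⟩ : ∃ g₁ ∈ EB F,
      ((g₁ : 𝕄) *ᵥ v) (xc 0) ≠ 0 ∨ ((g₁ : 𝕄) *ᵥ v) (xc 1) ≠ 0 := by
    by_cases hx : v (xc 0) ≠ 0 ∨ v (xc 1) ≠ 0
    · exact ⟨1, one_mem _, by simpa using hx⟩
    push Not at hx
    have hz : v zc = 0 := by
      rw [qB, hx.1, hx.2] at hqv
      simpa using hqv
    have hy : v (yc 0) ≠ 0 ∨ v (yc 1) ≠ 0 := by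
      by_contra hy
      push Not at hy
      have h0 : v = 0 := by
        funext i
        rcases i with i | i | i
        · exact hz
        · fin_cases i; exacts [hx.1, hx.2]
        · fin_cases i; exacts [hy.1, hy.2]
      have := congrArg ((g⁻¹ : GL I5 F) : 𝕄).mulVec h0
      rw [hv, Matrix.mulVec_mulVec, ← Units.val_mul, inv_mul_cancel, Units.val_one,
        Matrix.one_mulVec, Matrix.mulVec_zero] at this
      simpa using congrFun this (xc 0)
    refine ⟨_, memB hP 1, ?_⟩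
    simp only [coe_nkU, two_apply (okB hP)]
    rcases hy with h | h
    · exact Or.inr (by simpa [hx.2] using h)
    · exact Or.inl (by simpa [hx.1] using h)
  set v₁ := (g₁ : 𝕄) *ᵥ v with hv₁
  obtain ⟨g₂, hg₂, hx0⟩ : ∃ g₂ ∈ EB F, ((g₂ : 𝕄) *ᵥ v₁) (xc 0) = 1 := by
    by_cases h1 : v₁ (xc 1) = 0
    · have h0 := hx.resolve_right (fun h => h h1)
      refine ⟨_, mul_mem (memB hA01 ((1 - v₁ (xc 0)) / v₁ (xc 0))) (memB hA10 1), ?_⟩
      rw [Units.val_mul, ← Matrix.mulVec_mulVec, coe_nkU, coe_nkU, two_apply (okB hA01)]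
      simp [two_apply (okB hA10), h1]
      field_simp
      ring
    · refine ⟨_, memB hA01 ((1 - v₁ (xc 0)) / v₁ (xc 1)), ?_⟩
      rw [coe_nkU, two_apply (okB hA01)]
      simp
      field_simp
      ring
  set v₂ := (g₂ : 𝕄) *ᵥ v₁ with hv₂
  obtain ⟨g₃, hg₃, e₁⟩ : ∃ g₃ ∈ EB F, (g₃ : 𝕄) *ᵥ v₂ = Pi.single (xc 0) 1 := by
    set v₃ := (nkU _ (okB hA10) (-v₂ (xc 1)) : 𝕄) *ᵥ v₂ with hv₃
    have a0 : v₃ (xc 0) = 1 := by simp [hv₃, two_apply (okB hA10), hx0]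
    have a1 : v₃ (xc 1) = 0 := by simp [hv₃, two_apply (okB hA10), hx0]
    set v₄ := (nkU _ (okB hN) (v₃ (yc 1)) : 𝕄) *ᵥ v₃ with hv₄
    have b0 : v₄ (xc 0) = 1 := by simp [hv₄, two_apply (okB hN), a0]
    have b1 : v₄ (xc 1) = 0 := by simp [hv₄, two_apply (okB hN), a1]
    have b2 : v₄ (yc 1) = 0 := by simp [hv₄, two_apply (okB hN), a0]
    have hmem := mul_mem (mul_mem (memB hSn (-v₄ zc)) (memB hN (v₃ (yc 1))))
      (memB hA10 (-v₂ (xc 1)))
    refine ⟨_, hmem, ?_⟩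
    have hq : Cfsg.quadFormOdd 2 F ((nkU _ (okB hSn) (-v₄ zc) : 𝕄) *ᵥ v₄) = 0 := by
      rw [mem_isoB_iff.1 (EB_le_iso (memB hSn _)), hv₄, mem_isoB_iff.1 (EB_le_iso (memB hN _)),
        hv₃, mem_isoB_iff.1 (EB_le_iso (memB hA10 _)), hv₂, mem_isoB_iff.1 (EB_le_iso hg₂), hv₁,
        mem_isoB_iff.1 (EB_le_iso hg₁), hqv]
    rw [Units.val_mul, Units.val_mul, ← Matrix.mulVec_mulVec, ← Matrix.mulVec_mulVec, ← hv₃, ← hv₄]
    simp [qB, three_apply (okB hSn), b0, b1, b2] at hq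
    funext i
    rcases i with i | i | i
    · simp [three_apply (okB hSn), b0]
    · fin_cases i <;> simp [three_apply (okB hSn), b0, b1]
    · fin_cases i
      · simp [three_apply (okB hSn), b0]; linear_combination hq
      · simp [three_apply (okB hSn), b2]
  set q := g₃ * g₂ * g₁ * g with hq
  have hqE : g₃ * g₂ * g₁ ∈ EB F := mul_mem (mul_mem hg₃ hg₂) hg₁
  have hqiso : q ∈ Cfsg.isometryGroup F (Cfsg.quadFormOdd 2 F) := mul_mem (EB_le_iso hqE) hg
  have hqe : (q : 𝕄) *ᵥ Pi.single (xc 0) 1 = Pi.single (xc 0) 1 := by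
    conv_rhs => rw [← e₁, hv₂, hv₁, hv]
    rw [hq, Units.val_mul, Units.val_mul, Units.val_mul]
    simp only [← Matrix.mulVec_mulVec]
  set w := (q : 𝕄) *ᵥ Pi.single (yc 0) 1 with hw
  have hwy : w (yc 0) = 1 := by
    have := bB_iso hqiso (Pi.single (yc 0) 1) (Pi.single (xc 0) 1)
    rw [hqe, bB_x, bB_x] at this
    simpa [hw] using this
  set w₁ := (nkU _ (okB hA01) (w (yc 1)) : 𝕄) *ᵥ w with hw₁
  have c0 : w₁ (yc 0) = 1 := by simp [hw₁, two_apply (okB hA01), hwy]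
  have c1 : w₁ (yc 1) = 0 := by simp [hw₁, two_apply (okB hA01), hwy]
  set w₂ := (nkU _ (okB hP) (w₁ (xc 1)) : 𝕄) *ᵥ w₁ with hw₂
  have d0 : w₂ (yc 0) = 1 := by simp [hw₂, two_apply (okB hP), c0]
  have d1 : w₂ (yc 1) = 0 := by simp [hw₂, two_apply (okB hP), c1]
  have d2 : w₂ (xc 1) = 0 := by simp [hw₂, two_apply (okB hP), c0]
  have hmem := mul_mem (mul_mem (memB hSp (-w₂ zc)) (memB hP (w₁ (xc 1)))) (memB hA01 (w (yc 1)))
  refine ⟨_, mul_mem hmem hqE, ?_, ?_⟩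
  · rw [show nkU _ (okB hSp) (-w₂ zc) * nkU _ (okB hP) (w₁ (xc 1)) * nkU _ (okB hA01) (w (yc 1)) *
      (g₃ * g₂ * g₁) * g = nkU _ (okB hSp) (-w₂ zc) * nkU _ (okB hP) (w₁ (xc 1)) *
        nkU _ (okB hA01) (w (yc 1)) * q by rw [hq]; group, Units.val_mul, ← Matrix.mulVec_mulVec,
      hqe, Units.val_mul, Units.val_mul, ← Matrix.mulVec_mulVec, ← Matrix.mulVec_mulVec, coe_nkU,
      coe_nkU, coe_nkU, two_mulVec, two_mulVec, three_mulVec]
    simp
  · rw [show nkU _ (okB hSp) (-w₂ zc) * nkU _ (okB hP) (w₁ (xc 1)) * nkU _ (okB hA01) (w (yc 1)) *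
      (g₃ * g₂ * g₁) * g = nkU _ (okB hSp) (-w₂ zc) * nkU _ (okB hP) (w₁ (xc 1)) *
        nkU _ (okB hA01) (w (yc 1)) * q by rw [hq]; group, Units.val_mul, ← Matrix.mulVec_mulVec,
      ← hw, Units.val_mul, Units.val_mul, ← Matrix.mulVec_mulVec, ← Matrix.mulVec_mulVec, ← hw₁,
      ← hw₂]
    have hq0 : Cfsg.quadFormOdd 2 F ((nkU _ (okB hSp) (-w₂ zc) : 𝕄) *ᵥ w₂) = 0 := by
      rw [mem_isoB_iff.1 (EB_le_iso (memB hSp _)), hw₂, mem_isoB_iff.1 (EB_le_iso (memB hP _)),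
        hw₁, mem_isoB_iff.1 (EB_le_iso (memB hA01 _)), hw, mem_isoB_iff.1 hqiso]
      simp [qB]
    simp [qB, three_apply (okB hSp), d0, d1, d2] at hq0
    funext i
    rcases i with i | i | i
    · simp [three_apply (okB hSp), d0]
    · fin_cases i
      · simp [three_apply (okB hSp), d0]; linear_combination hq0
      · simp [three_apply (okB hSp), d2]
    · fin_cases i <;> simp [three_apply (okB hSp), d0, d1]

/-- The residual diagonal element. -/
def tB (ε c : Fˣ) : I5 → Fˣ :=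
  fun k => if k = zc then ε else if k = xc 1 then c else if k = yc 1 then c⁻¹ else 1

/-- Every isometry is elementary times a diagonal element. -/
theorem exists_residualB {g : GL I5 F} (hg : g ∈ Cfsg.isometryGroup F (Cfsg.quadFormOdd 2 F)) :
    ∃ e ∈ EB F, ∃ ε c : Fˣ, ε * ε = 1 ∧ g = e * diagU (tB ε c) := by
  obtain ⟨h₀, hh₀, f₁, f₂⟩ := exists_fixB hg
  have hSp : NK.three (xc 1) zc (yc 1) ∈ kindsB := by simp [kindsB]
  have hSn : NK.three (yc 1) zc (xc 1) ∈ kindsB := by simp [kindsB]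
  have sfix : ∀ t : F, ((nkU _ (okB hSp) t : 𝕄) *ᵥ Pi.single (xc 0) 1 = Pi.single (xc 0) 1 ∧
      (nkU _ (okB hSp) t : 𝕄) *ᵥ Pi.single (yc 0) 1 = Pi.single (yc 0) 1) ∧
      ((nkU _ (okB hSn) t : 𝕄) *ᵥ Pi.single (xc 0) 1 = Pi.single (xc 0) 1 ∧
      (nkU _ (okB hSn) t : 𝕄) *ᵥ Pi.single (yc 0) 1 = Pi.single (yc 0) 1) := fun t => by
    rw [coe_nkU, coe_nkU, three_mulVec, three_mulVec, three_mulVec, three_mulVec]; simp
  set p := h₀ * g with hp
  have hpiso : p ∈ Cfsg.isometryGroup F (Cfsg.quadFormOdd 2 F) := mul_mem (EB_le_iso hh₀) hg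
  have low : ∀ {r : GL I5 F}, r ∈ Cfsg.isometryGroup F (Cfsg.quadFormOdd 2 F) →
      (r : 𝕄) *ᵥ Pi.single (xc 0) 1 = Pi.single (xc 0) 1 →
      (r : 𝕄) *ᵥ Pi.single (yc 0) 1 = Pi.single (yc 0) 1 → ∀ u : I5 → F, u (xc 0) = 0 →
      u (yc 0) = 0 → ((r : 𝕄) *ᵥ u) (xc 0) = 0 ∧ ((r : 𝕄) *ᵥ u) (yc 0) = 0 := by
    intro r hr r1 r2 u u1 u2
    have h1 := bB_iso hr u (Pi.single (yc 0) 1)
    have h2 := bB_iso hr u (Pi.single (xc 0) 1)
    rw [r2, bB_y, bB_y, u1] at h1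
    rw [r1, bB_x, bB_x, u2] at h2
    exact ⟨h1, h2⟩
  set v := (p : 𝕄) *ᵥ Pi.single (xc 1) 1 with hv
  obtain ⟨v0, v0'⟩ := low hpiso f₁ f₂ (Pi.single (xc 1) 1) (by simp) (by simp)
  rw [← hv] at v0 v0'
  have hqv : Cfsg.quadFormOdd 2 F v = 0 := by rw [hv, mem_isoB_iff.1 hpiso]; simp [qB]
  obtain ⟨t₁, hx⟩ : ∃ t : F, ((nkU _ (okB hSp) t : 𝕄) *ᵥ v) (xc 1) ≠ 0 := by
    by_cases hx : v (xc 1) = 0
    · refine ⟨1, ?_⟩
      rw [qB, v0, hx, zero_mul, zero_mul, add_zero, add_zero] at hqv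
      have hz : v zc = 0 := by simpa using hqv
      have hy : v (yc 1) ≠ 0 := fun hy => by
        have h0 : v = 0 := by
          funext i
          rcases i with i | i | i
          · exact hz
          · fin_cases i; exacts [v0, hx]
          · fin_cases i; exacts [v0', hy]
        have := congrArg ((p⁻¹ : GL I5 F) : 𝕄).mulVec h0
        rw [hv, Matrix.mulVec_mulVec, ← Units.val_mul, inv_mul_cancel, Units.val_one,
          Matrix.one_mulVec, Matrix.mulVec_zero] at this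
        simpa using congrFun this (xc 1)
      rw [coe_nkU, three_apply (okB hSp)]
      simp [hx, hz, hy]
    · exact ⟨0, by rw [coe_nkU, three_apply (okB hSp)]; simpa using hx⟩
  set v₁ := (nkU _ (okB hSp) t₁ : 𝕄) *ᵥ v with hv₁
  set x := v₁ (xc 1) with hxdef
  set v₂ := (nkU _ (okB hSn) (-v₁ zc / x) : 𝕄) *ᵥ v₁ with hv₂
  set q := nkU _ (okB hSn) (-v₁ zc / x) * nkU _ (okB hSp) t₁ * p with hq
  have hqiso : q ∈ Cfsg.isometryGroup F (Cfsg.quadFormOdd 2 F) :=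
    mul_mem (EB_le_iso (mul_mem (memB hSn _) (memB hSp _))) hpiso
  have q1 : (q : 𝕄) *ᵥ Pi.single (xc 0) 1 = Pi.single (xc 0) 1 := by
    rw [hq, Units.val_mul, Units.val_mul, ← Matrix.mulVec_mulVec, f₁, ← Matrix.mulVec_mulVec,
      (sfix _).1.1, (sfix _).2.1]
  have q2 : (q : 𝕄) *ᵥ Pi.single (yc 0) 1 = Pi.single (yc 0) 1 := by
    rw [hq, Units.val_mul, Units.val_mul, ← Matrix.mulVec_mulVec, f₂, ← Matrix.mulVec_mulVec,
      (sfix _).1.2, (sfix _).2.2]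
  have hqe : (q : 𝕄) *ᵥ Pi.single (xc 1) 1 = Pi.single (xc 1) x := by
    rw [hq, Units.val_mul, Units.val_mul, ← Matrix.mulVec_mulVec, ← hv, ← Matrix.mulVec_mulVec,
      ← hv₁, ← hv₂]
    obtain ⟨a0, a1⟩ := low hqiso q1 q2 (Pi.single (xc 1) 1) (by simp) (by simp)
    have e : (q : 𝕄) *ᵥ Pi.single (xc 1) 1 = v₂ := by
      rw [hq, Units.val_mul, Units.val_mul, ← Matrix.mulVec_mulVec, ← hv, ← Matrix.mulVec_mulVec,
        ← hv₁, ← hv₂]
    rw [e] at a0 a1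
    have hz : v₂ zc = 0 := by simp [hv₂, three_apply (okB hSn), ← hxdef]; field_simp; ring
    have hx2 : v₂ (xc 1) = x := by simp [hv₂, three_apply (okB hSn), ← hxdef]
    have hQ : Cfsg.quadFormOdd 2 F v₂ = 0 := by rw [← e, mem_isoB_iff.1 hqiso]; simp [qB]
    rw [qB, hz, a0, hx2] at hQ
    have hy : v₂ (yc 1) = 0 := by simpa [hx] using hQ
    funext i
    rcases i with i | i | i
    · simp [hz]
    · fin_cases i <;> simp [a0, hx2]
    · fin_cases i <;> simp [a1, hy]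
  set w := (q : 𝕄) *ᵥ Pi.single (yc 1) 1 with hw
  have hwy : w (yc 1) * x = 1 := by
    have := bB_iso hqiso (Pi.single (yc 1) 1) (Pi.single (xc 1) 1)
    rw [hqe, bB_x] at this
    simp [bB, qB, ← hw] at this
    linear_combination this
  have hy0 : w (yc 1) ≠ 0 := left_ne_zero_of_mul_eq_one hwy
  set r := nkU _ (okB hSp) (-w zc / w (yc 1)) * q with hr
  have hriso : r ∈ Cfsg.isometryGroup F (Cfsg.quadFormOdd 2 F) :=
    mul_mem (EB_le_iso (memB hSp _)) hqiso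
  have r1 : (r : 𝕄) *ᵥ Pi.single (xc 0) 1 = Pi.single (xc 0) 1 := by
    rw [hr, Units.val_mul, ← Matrix.mulVec_mulVec, q1, (sfix _).1.1]
  have r2 : (r : 𝕄) *ᵥ Pi.single (yc 0) 1 = Pi.single (yc 0) 1 := by
    rw [hr, Units.val_mul, ← Matrix.mulVec_mulVec, q2, (sfix _).1.2]
  have re : (r : 𝕄) *ᵥ Pi.single (xc 1) 1 = Pi.single (xc 1) x := by
    rw [hr, Units.val_mul, ← Matrix.mulVec_mulVec, hqe, coe_nkU, three_mulVec]; simp
  have rf : (r : 𝕄) *ᵥ Pi.single (yc 1) 1 = Pi.single (yc 1) x⁻¹ := by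
    obtain ⟨a0, a1⟩ := low hriso r1 r2 (Pi.single (yc 1) 1) (by simp) (by simp)
    have e : (r : 𝕄) *ᵥ Pi.single (yc 1) 1 = (nkU _ (okB hSp) (-w zc / w (yc 1)) : 𝕄) *ᵥ w := by
      rw [hr, Units.val_mul, ← Matrix.mulVec_mulVec]
    set u := (r : 𝕄) *ᵥ Pi.single (yc 1) 1 with hu
    have hz : u zc = 0 := by rw [e]; simp [three_apply (okB hSp)]; field_simp; ring
    have huy : u (yc 1) = x⁻¹ := by
      rw [e]; simp [three_apply (okB hSp)]
      exact eq_inv_of_mul_eq_one_left hwy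
    have hQ : Cfsg.quadFormOdd 2 F u = 0 := by rw [hu, mem_isoB_iff.1 hriso]; simp [qB]
    rw [qB, hz, a0, huy] at hQ
    have hxu : u (xc 1) = 0 := by simpa [hx] using hQ
    funext i
    rcases i with i | i | i
    · simp [hz]
    · fin_cases i <;> simp [a0, hxu]
    · fin_cases i <;> simp [a1, huy]
  -- the anisotropic vector
  set u := (r : 𝕄) *ᵥ Pi.single zc 1 with hu
  obtain ⟨a0, a1⟩ := low hriso r1 r2 (Pi.single zc 1) (by simp) (by simp)
  rw [← hu] at a0 a1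
  have ux : u (xc 1) = 0 := by
    have := bB_iso hriso (Pi.single zc 1) (Pi.single (yc 1) 1)
    rw [rf, bB_y] at this
    simp [bB, qB, ← hu] at this
    have h2 : u (xc 1) * x⁻¹ = 0 := by linear_combination this
    exact (mul_eq_zero.1 h2).resolve_right (inv_ne_zero hx)
  have uy : u (yc 1) = 0 := by
    have := bB_iso hriso (Pi.single zc 1) (Pi.single (xc 1) 1)
    rw [re, bB_x] at this
    simp [bB, qB, ← hu] at this
    have h2 : u (yc 1) * x = 0 := by linear_combination this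
    exact (mul_eq_zero.1 h2).resolve_right hx
  have huz : u zc * u zc = 1 := by
    have := mem_isoB_iff.1 hriso (Pi.single zc 1)
    rw [← hu, qB, a0, ux] at this
    simpa [qB, sq] using this
  set ε : Fˣ := Units.mk0 (u zc) (left_ne_zero_of_mul_eq_one huz) with hε
  have key : r = diagU (tB ε (Units.mk0 x hx)) := by
    refine Units.ext (Matrix.ext_of_mulVec_single fun j => ?_)
    have hd : (diagU (tB ε (Units.mk0 x hx)) : 𝕄) *ᵥ Pi.single j 1 =
        Pi.single j (tB ε (Units.mk0 x hx) j : F) := funext fun k => by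
      rw [diagU_mulVec]
      by_cases e : k = j
      · subst e; simp
      · simp [e]
    rw [hd]
    rcases j with j | j | j
    · have hz : (r : 𝕄) *ᵥ Pi.single zc 1 = Pi.single zc (u zc) := by
        rw [← hu]
        funext i
        rcases i with i | i | i
        · simp
        · fin_cases i <;> simp [a0, ux]
        · fin_cases i <;> simp [a1, uy]
      rw [show (Sum.inl j : I5) = zc from rfl, hz]; simp [tB, ε]
    · fin_cases j
      · exact r1.trans (by simp [tB])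
      · exact re.trans (by simp [tB])
    · fin_cases j
      · exact r2.trans (by simp [tB])
      · exact rf.trans (by simp [tB])
  refine ⟨(nkU _ (okB hSp) (-w zc / w (yc 1)) * (nkU _ (okB hSn) (-v₁ zc / x) *
    nkU _ (okB hSp) t₁) * h₀)⁻¹, inv_mem (mul_mem (mul_mem (memB hSp _)
      (mul_mem (memB hSn _) (memB hSp _))) hh₀), ε, Units.mk0 x hx, Units.ext (by simpa [hε] using huz), ?_⟩
  rw [← key, hr, hq, hp]
  group

theorem tB_conj (ε c : Fˣ) (hε : ε * ε = 1) {x : GL I5 F} (hx : x ∈ EB F) :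
    diagU (tB ε c) * x * (diagU (tB ε c))⁻¹ ∈ EB F := by
  have : EB F ≤ (EB F).comap (MulAut.conj (diagU (tB ε c))).toMonoidHom := by
    conv_lhs => rw [EB]
    rw [Subgroup.closure_le]
    rintro y ⟨k, hk, hok, t, rfl⟩
    show diagU (tB ε c) * nkU k hok t * (diagU (tB ε c))⁻¹ ∈ EB F
    have hei : ε⁻¹ = ε := inv_eq_of_mul_eq_one_right hε
    rcases k with ⟨a, b, c', d⟩ | ⟨a, z, b⟩
    · have e : tB ε c a * (tB ε c b)⁻¹ = tB ε c c' * (tB ε c d)⁻¹ := by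
        simp only [kindsB, List.mem_cons, List.not_mem_nil, or_false, NK.two.injEq,
          reduceCtorEq] at hk
        rcases hk with ⟨rfl, rfl, rfl, rfl⟩ | ⟨rfl, rfl, rfl, rfl⟩ | ⟨rfl, rfl, rfl, rfl⟩ |
          ⟨rfl, rfl, rfl, rfl⟩ <;> simp [tB, mul_comm]
      rw [diag_conj_two _ hok e t]
      exact memB hk _
    · have e : tB ε c z * (tB ε c b)⁻¹ = tB ε c a * (tB ε c z)⁻¹ := by
        simp only [kindsB, List.mem_cons, List.not_mem_nil, or_false, NK.three.injEq,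
          reduceCtorEq, false_or] at hk
        rcases hk with ⟨rfl, rfl, rfl⟩ | ⟨rfl, rfl, rfl⟩ | ⟨rfl, rfl, rfl⟩ | ⟨rfl, rfl, rfl⟩ <;>
          simp [tB, hei, mul_comm]
      rw [diag_conj_three _ hok e t]
      exact memB hk _
  exact this hx

/-- Commutators of isometries are elementary. -/
theorem commutator_mem_EB {g h : GL I5 F}
    (hg : g ∈ Cfsg.isometryGroup F (Cfsg.quadFormOdd 2 F))
    (hh : h ∈ Cfsg.isometryGroup F (Cfsg.quadFormOdd 2 F)) : ⁅g, h⁆ ∈ EB F := by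
  obtain ⟨e, he, ε, c, hε, rfl⟩ := exists_residualB hg
  obtain ⟨e', he', ε', c', hε', rfl⟩ := exists_residualB hh
  have h1 := tB_conj ε c hε he'
  have h2 := tB_conj ε' c' hε' (inv_mem he)
  have hk : ⁅diagU (tB ε c), diagU (tB ε' c')⁆ = 1 := by
    rw [commutatorElement_eq_one_iff_mul_comm, diagU_mul, diagU_mul, mul_comm]
  rw [show ⁅e * diagU (tB ε c), e' * diagU (tB ε' c')⁆ = e * (diagU (tB ε c) * e' *
      (diagU (tB ε c))⁻¹) * ⁅diagU (tB ε c), diagU (tB ε' c')⁆ *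
      (diagU (tB ε' c') * e⁻¹ * (diagU (tB ε' c'))⁻¹) * e'⁻¹ by
    simp only [commutatorElement_def]; group, hk, mul_one]
  exact mul_mem (mul_mem (mul_mem he h1) h2) (inv_mem he')

end CfsgLib.Chev.Natural
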